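import Cfsg.Agent.Chev.St

/-!
Values of the Steinberg character, its irreducibility, and the number of unipotent elements.
-/

set_option autoImplicit false
set_option linter.unusedSimpArgs false
set_option linter.unusedVariables false

attribute [-simp] zsmul_eq_mul nsmul_eq_mul

namespace Cfsg.Agent.Chev

open Cfsg.Lie Cfsg.Lie.ChevalleyDatum Equiv Cfsg.Agent.CharLib

section general

variable {G : Type*} [Group G]

theorem card_of_compl {P U L : Subgroup G} (hU : U ≤ P) (hL : L ≤ P) (h1 : ∀ x ∈ P, ∃ u ∈ U, ∃ l ∈ L, x = u * l)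
    (h2 : ∀ x ∈ U, x ∈ L → x = 1) (A : Subgroup G) (hA : A ≤ U) (Q : G → Prop)
    (h3 : ∀ u ∈ U, ∀ l ∈ L, Q (u * l) ↔ u ∈ A) : Nat.card {x // x ∈ P ∧ Q x} = Nat.card A * Nat.card L := by
  rw [← Nat.card_prod]
  refine (Nat.card_congr (Equiv.ofBijective (fun p : A × L =>
    (⟨p.1 * p.2, mul_mem (hU (hA p.1.2)) (hL p.2.2), (h3 _ (hA p.1.2) _ p.2.2).2 p.1.2⟩ : {x // x ∈ P ∧ Q x}))
      ⟨?_, ?_⟩)).symm
  · rintro ⟨u, a⟩ ⟨v, b⟩ h
    have h4 : (u : G) * a = v * b := congrArg Subtype.val h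
    have h5 : (v : G)⁻¹ * u = b * a⁻¹ := by
      rw [inv_mul_eq_iff_eq_mul, ← mul_assoc, ← h4]; simp
    have h6 := h2 _ (mul_mem (inv_mem (hA v.2)) (hA u.2)) (h5 ▸ mul_mem b.2 (inv_mem a.2))
    rw [h6] at h5
    rw [inv_mul_eq_one] at h6
    exact Prod.ext (Subtype.ext h6.symm) (Subtype.ext (mul_inv_eq_one.1 h5.symm).symm)
  · rintro ⟨x, hx, hQ⟩
    obtain ⟨u, hu, l, hl, rfl⟩ := h1 x hx
    exact ⟨⟨⟨u, (h3 u hu l hl).1 hQ⟩, ⟨l, hl⟩⟩, rfl⟩

theorem fx_compl [Finite G] {P U L : Subgroup G} (hU : U ≤ P) (hL : L ≤ P) (h1 : ∀ x ∈ P, ∃ u ∈ U, ∃ l ∈ L, x = u * l)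
    (h2 : ∀ x ∈ U, x ∈ L → x = 1) (h3 : ∀ l ∈ L, ∀ u ∈ U, l * u * l⁻¹ ∈ U) {s : G} (hs : s ∈ L) :
    fx P L s = Nat.card ↥(U ⊓ Subgroup.centralizer {s}) := by
  rw [fx, card_of_compl hU hL h1 h2 (U ⊓ Subgroup.centralizer {s}) inf_le_left _ fun u hu l hl => ?_, Nat.cast_mul,
    mul_div_cancel_right₀ _ (Nat.cast_ne_zero.2 Nat.card_pos.ne')]
  have e : (u * l)⁻¹ * s * (u * l) = l⁻¹ * (u⁻¹ * (s * u * s⁻¹)) * (s * l) := by group
  rw [e, L.mul_mem_cancel_right (mul_mem hs hl), L.mul_mem_cancel_left (inv_mem hl), Subgroup.mem_inf,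
    Subgroup.mem_centralizer_singleton_iff]
  constructor
  · intro h
    have := h2 _ (mul_mem (inv_mem hu) (h3 s hs u hu)) h
    rw [inv_mul_eq_one, eq_mul_inv_iff_mul_eq] at this
    exact ⟨hu, this⟩
  · rintro ⟨-, h⟩
    rw [← h]; simp

theorem conj_fx (P Q : Subgroup G) (g : G) : (starRingEnd ℂ) (fx P Q g) = fx P Q g := by simp [fx]

theorem sum_powerset_inv {ι R : Type*} [DecidableEq ι] [CommRing R] (M : Finset ι) (a : Finset ι → R) :
    ∑ K ∈ M.powerset, (-1) ^ K.card * ∑ J ∈ K.powerset, (-1) ^ J.card * a J = a M := by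
  induction M using Finset.induction_on generalizing a with
  | empty => simp
  | insert j M hj ih =>
    rw [Finset.sum_powerset_insert hj, ← ih fun J => a (insert j J), ← Finset.sum_add_distrib]
    refine Finset.sum_congr rfl fun K hK => ?_
    rw [Finset.mem_powerset] at hK
    have h1 : j ∉ K := fun h => hj (hK h)
    have h2 : ∑ J ∈ K.powerset, (-1) ^ (insert j J).card * a (insert j J) =
        - ∑ J ∈ K.powerset, (-1) ^ J.card * a (insert j J) := by
      rw [← Finset.sum_neg_distrib]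
      refine Finset.sum_congr rfl fun J hJ => ?_
      rw [Finset.card_insert_of_notMem fun h => h1 (Finset.mem_powerset.1 hJ h)]; ring
    rw [Finset.sum_powerset_insert h1, Finset.card_insert_of_notMem h1, h2]
    ring

theorem exists_pow_mul {U L : Subgroup G} (h3 : ∀ l ∈ L, ∀ u ∈ U, l * u * l⁻¹ ∈ U) {u l : G} (hu : u ∈ U) (hl : l ∈ L)
    (n : ℕ) : ∃ v ∈ U, (u * l) ^ n = v * l ^ n := by
  induction n with
  | zero => exact ⟨1, one_mem _, by simp⟩
  | succ n ih =>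
    obtain ⟨v, hv, e⟩ := ih
    exact ⟨v * (l ^ n * u * (l ^ n)⁻¹), mul_mem hv (h3 _ (pow_mem hl n) u hu), by rw [pow_succ, e, pow_succ]; group⟩

theorem exists_conj_mem_compl [Finite G] {p : ℕ} [Fact p.Prime] {U L : Subgroup G} (hU : IsPGroup p U)
    (h2 : ∀ x ∈ U, x ∈ L → x = 1) (h3 : ∀ l ∈ L, ∀ u ∈ U, l * u * l⁻¹ ∈ U) {u l : G} (hu : u ∈ U) (hl : l ∈ L)
    (hs : (orderOf (u * l)).Coprime p) : ∃ v ∈ U, u * l = v * l * v⁻¹ := by
  obtain ⟨w, hw, e⟩ := exists_pow_mul h3 hu hl (orderOf (u * l))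
  rw [pow_orderOf_eq_one, eq_comm, mul_eq_one_iff_eq_inv] at e
  have h4 : l ^ orderOf (u * l) = 1 := by
    rw [← inv_eq_one, ← e]; exact h2 w hw (e ▸ inv_mem (pow_mem hl _))
  obtain ⟨v, hv, c, hc, h5, h6⟩ := exists_conj_mul_comm hU (hs.coprime_dvd_left (orderOf_dvd_of_pow_eq_one h4))
    (h3 l hl) hu
  have h7 : c ^ orderOf (u * l) = 1 := by
    have := pow_orderOf_eq_one (u * l)
    nth_rewrite 1 [h6] at this
    rwa [conj_pow, conj_eq_one_iff, Commute.mul_pow h5, h4, one_mul] at this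
  obtain ⟨k, hk⟩ := hU ⟨c, hc⟩
  have h8 : c = 1 := by
    rw [← orderOf_eq_one_iff]
    exact Nat.eq_one_of_dvd_coprimes (hs.pow_right k) (orderOf_dvd_of_pow_eq_one h7)
      (orderOf_dvd_of_pow_eq_one (congrArg Subtype.val hk))
  exact ⟨v, hv, by rw [h6, h8, mul_one]⟩

end general

namespace Sys

variable {D : ChevalleyDatum} {C : Cert D} {F : Type*} [Field F] {G : Type*} [Group G] (S : Sys C F G)

theorem L_empty : S.L ∅ = S.H := by simp [L, C.not_inJ_empty, U_empty]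

theorem St_B [Finite G] (M : Finset (Nd D)) {b : G} (hb : b ∈ S.B) : S.St M b = fx S.B (S.H ⊔ S.UJ M) b := by
  rw [S.St_restrict (Finset.empty_subset M) (by simpa [P_empty] using hb)]
  simp only [Finset.powerset_empty, Finset.sum_singleton, Finset.card_empty, pow_zero, one_mul, Finset.coe_empty,
    P_empty, L_empty]
  rw [inf_eq_right.2 (sup_le S.H_le_B ((S.UJ_le_Up _).trans S.Up_le_B))]

theorem St_univ [Finite G] {K : Finset (Nd D)} {g : G} (hg : g ∈ S.P K) :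
    S.St Finset.univ g = ∑ J ∈ K.powerset, (-1) ^ J.card * fx (S.P K) (S.P J ⊓ S.L K) g := by
  simpa [UJ_univ] using S.St_restrict (Finset.subset_univ K) hg

theorem St_univ_conj (a g : G) : S.St Finset.univ (a * g * a⁻¹) = S.St Finset.univ g :=
  S.St_conj _ (by simp [P_univ]) g

theorem mem_H_sup_UJ {M : Set (Nd D)} {g : G} : g ∈ S.H ⊔ S.UJ M ↔ ∃ u ∈ S.UJ M, ∃ a ∈ S.H, g = u * a := by
  rw [sup_comm]; exact S.mem_U_sup_H

theorem card_H_sup_UJ (M : Set (Nd D)) : Nat.card ↥(S.H ⊔ S.UJ M) = Nat.card (S.UJ M) * Nat.card S.H := by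
  rw [← card_of_compl le_sup_right le_sup_left (fun x => S.mem_H_sup_UJ.1)
    (fun x hx => S.eq_one_of_mem_Up_H (S.UJ_le_Up M hx)) (S.UJ M) le_rfl (fun _ => True) fun u hu l hl => by simpa]
  simp

theorem St_of_mem_UJ [Finite G] (M : Finset (Nd D)) {u : G} (hu : u ∈ S.UJ M) :
    S.St M u = (Nat.card S.Up : ℂ) / Nat.card (S.UJ M) := by
  rw [S.St_B M (S.Up_le_B (S.UJ_le_Up _ hu)), fx_of_all fun x hx => le_sup_right (α := Subgroup G) (by
    simpa using S.P_conj_UJ (S.B_le_P M (inv_mem hx)) hu), card_B, card_H_sup_UJ, Nat.cast_mul, Nat.cast_mul,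
    mul_div_mul_right _ _ (Nat.cast_ne_zero.2 Nat.card_pos.ne')]

theorem St_of_notMem_UJ [Finite G] (M : Finset (Nd D)) {u : G} (hu : u ∈ S.Up) (h : u ∉ S.UJ M) : S.St M u = 0 := by
  rw [S.St_B M (S.Up_le_B hu)]
  refine fx_eq_zero fun x hx h1 => h ?_
  obtain ⟨v, hv, a, ha, e⟩ := S.mem_H_sup_UJ.1 h1
  have h2 : x⁻¹ * u * x ∈ S.Up := by simpa using S.B_conj_Up (inv_mem hx) hu
  rw [S.eq_one_of_mem_Up_H ((S.Up.mul_mem_cancel_left (S.UJ_le_Up _ hv)).1 (e ▸ h2)) ha, mul_one] at e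
  have := S.P_conj_UJ (S.B_le_P M hx) hv
  rw [← e] at this
  simpa [mul_assoc] using this

theorem St_one [Finite G] : S.St Finset.univ 1 = Nat.card S.Up := by
  rw [S.St_of_mem_UJ _ (one_mem _)]; simp [UJ_univ]

theorem conj_St (M : Finset (Nd D)) (g : G) : (starRingEnd ℂ) (S.St M g) = S.St M g := by
  simp [St, conj_fx]

open Classical in
theorem sum_St_mul [Fintype G] (M : Finset (Nd D)) {f : G → ℂ} (hf : ∀ x ∈ S.P M, ∀ y ∈ S.P M, f (x * y * x⁻¹) = f y) :
    ∑ g with g ∈ S.P M, S.St M g * f g = Nat.card (S.P M) *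
      ∑ J ∈ M.powerset, (-1) ^ J.card * ((∑ y with y ∈ S.P J, f y) / Nat.card (S.P J)) := by
  simp only [St, Finset.sum_mul, mul_assoc]
  rw [Finset.sum_comm, Finset.mul_sum]
  refine Finset.sum_congr rfl fun J hJ => ?_
  rw [← Finset.mul_sum, sum_fx_mul (S.P_mono (Finset.mem_powerset.1 hJ)) hf]; ring

open Classical in
theorem sum_St_P [Fintype G] (K : Finset (Nd D)) :
    ∑ g with g ∈ S.P K, S.St Finset.univ g = if K = ∅ then (Nat.card (S.P K) : ℂ) else 0 := by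
  rw [Finset.sum_congr rfl fun g hg => S.St_univ (Finset.mem_filter.1 hg).2, Finset.sum_comm,
    Finset.sum_congr rfl fun J hJ => by rw [← Finset.mul_sum, sum_fx (inf_le_right.trans (S.L_le_P K))],
    ← Finset.sum_mul]
  have := congrArg (Int.cast : ℤ → ℂ) (Finset.sum_powerset_neg_one_pow_card (x := K))
  push_cast at this
  rw [this]; split_ifs <;> simp

theorem isGen_St [Finite G] : IsGeneralizedCharacter G (S.St Finset.univ) := by
  have : S.St Finset.univ = ∑ J ∈ (Finset.univ : Finset (Nd D)).powerset,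
      ((-1 : ℤ) ^ J.card) • fun g => (Nat.card (MulAction.fixedBy (G ⧸ S.P J) g) : ℂ) := by
    ext g
    simp only [St, Finset.sum_apply, Pi.smul_apply, zsmul_eq_mul, Finset.coe_univ, P_univ, ← fixedPointCharacter_eq]
    push_cast; rfl
  rw [this]
  exact isGen_sum _ fun J _ => isGen_zsmul (isGen_of_isChar (isChar_fixedBy _)) _

theorem isIrr_St [Finite G] : IsIrrCharacter G (S.St Finset.univ) := by
  classical
  have := Fintype.ofFinite G
  refine isIrr_of_norm_one S.isGen_St ?_ (by rw [St_one]; simp)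
  have h := S.sum_St_mul Finset.univ (f := S.St Finset.univ) fun x _ y _ => S.St_univ_conj x y
  simp only [sum_St_P, Finset.coe_univ, P_univ, Subgroup.mem_top, Finset.filter_true] at h
  rw [Finset.sum_eq_single_of_mem (∅ : Finset (Nd D)) (by simp) fun J _ hJ => by simp [hJ]] at h
  simp only [classInner, conj_St, h, if_true]
  have h1 : (Nat.card (S.P (∅ : Finset (Nd D))) : ℂ) ≠ 0 := Nat.cast_ne_zero.2 Nat.card_pos.ne'
  have h2 : (Nat.card G : ℂ) ≠ 0 := Nat.cast_ne_zero.2 Nat.card_pos.ne'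
  rw [div_self h1, Nat.card_congr (Equiv.subtypeUnivEquiv fun _ => trivial)]
  simp [h2, -Nat.card_eq_fintype_card]

variable [Finite F] [Finite G] (hφ : Function.Injective S.φ) (p : ℕ) [Fact p.Prime] [CharP F p]
include hφ

theorem St_singular {g : G} (hg : p ∣ orderOf g) : S.St Finset.univ g = 0 := by
  classical
  obtain ⟨m, hm⟩ := hg
  have h0 := (isOfFinOrder_of_finite g).orderOf_pos
  have hp : 1 < p := (Fact.out : p.Prime).one_lt
  have h1 : g ^ m ≠ 1 := pow_ne_one_of_lt_orderOf (by rintro rfl; omega) (by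
    have : 0 < m := Nat.pos_of_ne_zero (by rintro rfl; omega)
    rw [hm]; nlinarith)
  obtain ⟨g₀, h2⟩ := S.exists_conj_mem_Up hφ p (x := g ^ m) (k := 1) (by
    rw [pow_one, ← pow_mul, mul_comm, ← hm, pow_orderOf_eq_one])
  obtain ⟨y, J, h3, h4⟩ := S.borel_tits (X := {g ^ m}) (g₀ := g₀) (by simpa using h2)
  have h5 := h4 g (by rintro _ rfl; exact show _ = _ by group)
  have h6 := h3 _ rfl
  rw [← Set.coe_toFinset J] at h5 h6
  rw [← S.St_univ_conj y, S.St_univ h5]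
  refine Finset.sum_eq_zero fun I _ => mul_eq_zero_of_right _ (fx_eq_zero fun x hx h => h1 ?_)
  have h7 := S.eq_one_of_mem_UJ_L (S.P_conj_UJ (inv_mem hx) h6) (by
    rw [← conj_pow, ← conj_pow, inv_inv]; exact (S.L _).pow_mem h.2 m)
  rwa [conj_eq_one_iff, conj_eq_one_iff] at h7

theorem St_regular {s : G} (hs : ¬ p ∣ orderOf s) : ∃ k : ℕ, S.St Finset.univ s =
    (-1) ^ k * ((p ^ (Nat.card (Subgroup.centralizer ({s} : Set G))).factorization p : ℕ) : ℂ) := by
  classical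
  let V : Sylow p (Subgroup.centralizer ({s} : Set G)) := default
  obtain ⟨g₀, h0⟩ := S.exists_conj_le_Up hφ p (V.isPGroup'.map (Subgroup.subtype _))
  obtain ⟨y₀, J₀, h1, h2⟩ := S.borel_tits (X := (V.toSubgroup.map (Subgroup.subtype _) : Subgroup G)) h0
  obtain ⟨J, hJ, hmin⟩ := Finset.exists_min_image (Finset.univ.filter fun J : Finset (Nd D) => ∃ y : G,
    (∀ v ∈ V.toSubgroup, y * v.1 * y⁻¹ ∈ S.UJ J) ∧ y * s * y⁻¹ ∈ S.P J) Finset.card ⟨J₀.toFinset, by
      simp only [Finset.mem_filter, Finset.mem_univ, true_and, Set.coe_toFinset]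
      refine ⟨y₀, fun v hv => h1 _ ⟨v, hv, rfl⟩, h2 s ?_⟩
      rintro _ ⟨v, hv, rfl⟩
      exact ⟨v, hv, by rw [Subgroup.subtype_apply, v.2 s rfl]; simp⟩⟩
  simp only [Finset.mem_filter, Finset.mem_univ, true_and] at hJ hmin
  obtain ⟨y₁, h3, h4⟩ := hJ
  obtain ⟨u, hu, l, hl, e⟩ := S.mem_P_levi.1 h4
  have hN : ∀ l ∈ S.L J, ∀ u ∈ S.UJ J, l * u * l⁻¹ ∈ S.UJ J := fun l hl u hu => S.P_conj_UJ (S.L_le_P _ hl) hu
  have hU : IsPGroup p (S.UJ J) := (S.isPGroup_Up p).to_le (S.UJ_le_Up _)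
  obtain ⟨v, hv, e'⟩ := exists_conj_mem_compl hU (fun x => S.eq_one_of_mem_UJ_L) hN hu hl (by
    rw [← e, show y₁ * s * y₁⁻¹ = MulAut.conj y₁ s from rfl, MulEquiv.orderOf_eq]
    exact ((Nat.Prime.coprime_iff_not_dvd Fact.out).2 hs).symm)
  obtain ⟨y, hy, h5⟩ : ∃ y, l = y * s * y⁻¹ ∧ ∀ w ∈ V.toSubgroup, y * w.1 * y⁻¹ ∈ S.UJ J :=
    ⟨v⁻¹ * y₁, by rw [mul_assoc v⁻¹, mul_inv_rev, ← mul_assoc, mul_assoc v⁻¹, e, e']; group, fun w hw => by
      simpa [mul_assoc] using S.P_conj_UJ (S.UJ_le_P _ (inv_mem hv)) (h3 w hw)⟩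
  refine ⟨J.card, ?_⟩
  rw [← S.St_univ_conj y, ← hy, S.St_univ (S.L_le_P _ hl), Finset.sum_eq_single_of_mem J (by simp),
    inf_eq_right.2 (S.L_le_P _), fx_compl (S.UJ_le_P _) (S.L_le_P _) (fun x => S.mem_P_levi.1)
      (fun x => S.eq_one_of_mem_UJ_L) hN hl, ← V.card_eq_multiplicity]
  · congr 2
    let f := (MulAut.conj y).toMonoidHom.comp (Subgroup.centralizer ({s} : Set G)).subtype
    have hf : Function.Injective f := (MulAut.conj y).injective.comp Subtype.val_injective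
    rw [← V.is_maximal' (hU.comap_of_injective f hf) h5, ← Subgroup.card_map_of_injective hf,
      Subgroup.map_comap_eq]
    suffices Subgroup.centralizer {l} = f.range by rw [this, inf_comm]
    ext x
    rw [Subgroup.mem_centralizer_singleton_iff, hy]
    constructor
    · intro h
      refine ⟨⟨y⁻¹ * x * y, Subgroup.mem_centralizer_singleton_iff.2 ?_⟩, by simp [f, mul_assoc]⟩
      rw [← mul_right_inj y, ← mul_left_inj y⁻¹]
      simpa [mul_assoc] using h
    · rintro ⟨x, rfl⟩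
      simp [f, mul_assoc, x.2 s rfl, ← mul_assoc s]
  · intro I hI hne
    refine mul_eq_zero_of_right _ (fx_eq_zero fun x hx h => ?_)
    rw [Finset.mem_powerset] at hI
    refine (hmin I ⟨x⁻¹ * y, fun w hw => ?_, ?_⟩).not_gt (Finset.card_lt_card (hI.ssubset_of_ne hne))
    · simpa [mul_assoc] using S.UJ_anti hI (S.P_conj_UJ (inv_mem hx) (h5 w hw))
    · simpa [hy, mul_assoc] using h.1

theorem exists_conj_mem_Up_P {J : Set (Nd D)} {x : G} (hx : x ∈ S.P J) {k : ℕ} (h : orderOf x = p ^ k) :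
    ∃ g ∈ S.P J, g * x * g⁻¹ ∈ S.Up := by
  have h1 : IsPGroup p (Subgroup.zpowers (⟨x, hx⟩ : S.P J)) :=
    IsPGroup.of_card (by rw [Nat.card_zpowers, Subgroup.orderOf_mk, h])
  obtain ⟨Q, hQ⟩ := h1.exists_le_sylow
  obtain ⟨g, hg⟩ := MulAction.exists_smul_eq (S.P J) Q ((S.sylowUp hφ p).subtype (S.Up_le_P J))
  refine ⟨g, g.2, ?_⟩
  have : g * ⟨x, hx⟩ * g⁻¹ ∈ (g • Q : Sylow p _) := ⟨_, hQ (Subgroup.mem_zpowers _), rfl⟩
  rw [hg] at this
  exact this

theorem card_unipotent : Nat.card {g : G // ∃ k : ℕ, orderOf g = p ^ k} = Nat.card S.Up ^ 2 := by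
  classical
  have := Fintype.ofFinite G
  let f : G → ℂ := fun g => if ∃ k : ℕ, orderOf g = p ^ k then 1 else 0
  have hf : ∀ x y, f (x * y * x⁻¹) = f y := fun x y => by
    simp only [f, show x * y * x⁻¹ = MulAut.conj x y from rfl, MulEquiv.orderOf_eq]
  have h0 : ∀ K : Subgroup G, (Nat.card K : ℂ) ≠ 0 := fun K => Nat.cast_ne_zero.2 Nat.card_pos.ne'
  have h1 : ∀ M : Finset (Nd D), ∑ J ∈ M.powerset, (-1) ^ J.card * ((∑ y with y ∈ S.P J, f y) / Nat.card (S.P J)) =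
      (Nat.card S.Up : ℂ) / Nat.card (S.P M) := by
    intro M
    rw [eq_div_iff (h0 _), mul_comm, ← S.sum_St_mul M fun x _ y _ => hf x y,
      ← Finset.sum_subset (s₁ := Finset.univ.filter (· ∈ S.UJ M)) (fun x hx => by
        simpa using S.UJ_le_P _ (Finset.mem_filter.1 hx).2), Finset.sum_congr rfl fun u hu => ?_, Finset.sum_const,
      ← Nat.subtype_card (p := (· ∈ S.UJ M)) _ fun x => by simp, nsmul_eq_mul, mul_div_cancel₀ _ (h0 _)]
    · have hu := (Finset.mem_filter.1 hu).2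
      obtain ⟨k, hk⟩ := IsPGroup.iff_orderOf.1 (S.isPGroup_Up p) ⟨u, S.UJ_le_Up _ hu⟩
      rw [S.St_of_mem_UJ M hu]
      simp only [f]
      rw [if_pos ⟨k, by simpa using hk⟩, mul_one]
    · intro x hx hx'
      simp only [Finset.mem_filter, Finset.mem_univ, true_and] at hx hx'
      simp only [f]
      split_ifs with h
      · obtain ⟨k, h⟩ := h
        obtain ⟨g, hg, h2⟩ := S.exists_conj_mem_Up_P hφ p hx h
        rw [← S.St_conj M hg, S.St_of_notMem_UJ M h2 fun h3 => hx' (by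
          simpa [mul_assoc] using S.P_conj_UJ (inv_mem hg) h3), zero_mul]
      · simp
  have h2 := sum_powerset_inv Finset.univ fun J : Finset (Nd D) => (∑ y with y ∈ S.P J, f y) / Nat.card (S.P J)
  have h3 := S.St_one
  have h4 : ∀ J : Finset (Nd D), fx ⊤ (S.P J) 1 = (Nat.card (⊤ : Subgroup G) : ℂ) / Nat.card (S.P J) :=
    fun J => fx_of_all fun x _ => by simp
  simp only [h1, Finset.coe_univ, P_univ] at h2
  simp only [St, Finset.coe_univ, P_univ, h4] at h3
  rw [eq_div_iff (h0 _), Finset.sum_mul, Finset.filter_true_of_mem fun x _ => Subgroup.mem_top x,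
    Finset.sum_boole] at h2
  rw [Nat.subtype_card (Finset.univ.filter fun g : G => ∃ k : ℕ, orderOf g = p ^ k) fun x => by simp]
  apply Nat.cast_injective (R := ℂ)
  rw [← h2, Nat.cast_pow, pow_two]
  nth_rewrite 2 [← h3]
  rw [Finset.sum_mul]
  exact Finset.sum_congr rfl fun J _ => by ring

end Sys

theorem Cert.steinberg_eq {D : ChevalleyDatum} (C : Cert D) (F : Type*) [Field F] [Finite F] :
    D.steinbergCharacter F = (C.sys F).St Finset.univ := by
  ext g
  have h : Finset.range D.rank = (Finset.univ : Finset (Nd D)).image Fin.val := by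
    ext i; simp [Fin.exists_iff]
  delta steinbergCharacter
  rw [Sys.St, h, Finset.powerset_image,
    Finset.sum_image (Finset.image_injective Fin.val_injective).injOn]
  refine Finset.sum_congr rfl fun J _ => ?_
  rw [Finset.card_image_of_injective _ Fin.val_injective, C.parabolicIn_eq, Finset.coe_image, Cert.nodes_image,
    fixedPointCharacter_eq, Finset.coe_univ, Sys.P_univ]

end Cfsg.Agent.Chev
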